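import Cfsg.Agent.H540.E8C.O8.Iface
import Cfsg.Agent.S1265
import Cfsg.Agent.Lib.GenFitting

/-!
# S5919, the row `Ω₈⁺(2)`: task O8-GRP (helper528)
-/

set_option autoImplicit false

namespace Cfsg.Agent.H528.O8

open Cfsg.Agent.StdO8.Model (Om)

/-- **Task O8-GRP.** -/
theorem grp8 : Cfsg.Agent.H540.E8C.O8.Grp8 := by
  intro H _ _ he
  obtain ⟨e0⟩ := he
  obtain ⟨e1⟩ := Cfsg.Agent.H836.EightO.exists_omega
  have hNn : (Cfsg.generalizedFittingSubgroup H).Normal := Cfsg.Agent.Lib.GenFitting.genFitting_normal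
  have hself := Cfsg.Agent.S1265.result (G := H)
  obtain ⟨N, hN⟩ : ∃ N, N = Cfsg.generalizedFittingSubgroup H := ⟨_, rfl⟩
  rw [← hN] at e0 hNn hself
  obtain ⟨e, -⟩ : ∃ e : ↥N ≃* Om, e = e0.trans e1 := ⟨_, rfl⟩
  have hφ : ∀ s, (N.subtype.comp e.symm.toMonoidHom) s = ((e.symm s : N) : H) := fun _ => rfl
  refine ⟨N.subtype.comp e.symm.toMonoidHom, fun a b h => ?_, ?_, fun z hz => ?_⟩
  · rw [hφ, hφ] at h
    exact e.symm.injective (Subtype.ext h)
  · have hr : (N.subtype.comp e.symm.toMonoidHom).range = N := by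
      apply le_antisymm
      · rintro _ ⟨g, rfl⟩
        rw [hφ]; exact (e.symm g).2
      · intro x hx
        exact ⟨e ⟨x, hx⟩, by rw [hφ, e.symm_apply_apply]⟩
    rw [hr]
    exact hNn
  · have hg : z ∈ Subgroup.centralizer (N : Set H) := by
      rw [Subgroup.mem_centralizer_iff]
      intro t ht
      have h1 := hz (e ⟨t, ht⟩)
      rw [hφ, e.symm_apply_apply] at h1
      exact h1.eq.symm
    have h1 := hself hg
    have h3 : e ⟨z, h1⟩ ∈ Subgroup.center Om := by
      rw [Subgroup.mem_center_iff]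
      intro y
      obtain ⟨x, rfl⟩ := e.surjective y
      rw [← map_mul, ← map_mul]
      exact congrArg e (Subtype.ext (Subgroup.mem_centralizer_iff.1 hg x x.2))
    rw [Cfsg.Agent.StdO8.Model.center_Om, Subgroup.mem_bot, map_eq_one_iff e e.injective] at h3
    exact congrArg Subtype.val h3

end Cfsg.Agent.H528.O8
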